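import Cfsg.Agent.H39.E6b
import Cfsg.Agent.H39.IsoSL

/-! The isometry group of the cubic form in 27 variables is generated by root elements. -/

set_option autoImplicit false

namespace Cfsg.Agent.H39

open Cfsg.Lie H37 H38 Matrix

theorem A2.mem_of {F : Type*} [Field F] {G : Type*} [Group G] (A : A2 F G) {K : Subgroup G} {i j k : Fin 3}
    (h1 : i ≠ j) (h2 : j ≠ k) (h3 : i ≠ k) (a : ∀ t, A.x i j t ∈ K) (b : ∀ t, A.x j k t ∈ K) (t : F) :
    A.x i k t ∈ K := by
  have := mul_mem (inv_mem (mul_mem (b 1) (a t))) (mul_mem (a t) (b 1))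
  rwa [A.conj' h1 h2 h3, inv_mul_cancel_left, mul_one] at this

theorem A2.mem_commutator {F : Type*} [Field F] {G : Type*} [Group G] (A : A2 F G) {i j k : Fin 3}
    (h1 : i ≠ j) (h2 : j ≠ k) (h3 : i ≠ k) (t : F) : A.x i k t ∈ commutator G := by
  have := Subgroup.commutator_mem_commutator (Subgroup.mem_top (A.x i j t)⁻¹) (Subgroup.mem_top (A.x j k 1)⁻¹)
  rw [commutatorElement_def, inv_inv, inv_inv, mul_assoc, A.conj' h1 h2 h3] at this
  simpa [mul_assoc, commutator_def] using this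

/-- Restriction to a subgroup containing the root elements. -/
noncomputable def Diag.restrict {ι : Type} [Fintype ι] [DecidableEq ι] {C : ι → ι → ℤ} {F : Type*} [Field F]
    {G : Type*} [Group G] (D : Diag C F G) (K : Subgroup G) (h : ∀ i t, D.u i t ∈ K ∧ D.v i t ∈ K) : Diag C F K where
  u i t := ⟨_, (h i t).1⟩
  v i t := ⟨_, (h i t).2⟩
  comm h1 h2 t s := ⟨Subtype.ext (D.comm h1 h2 t s).1, Subtype.ext (D.comm h1 h2 t s).2.1,
    Subtype.ext (D.comm h1 h2 t s).2.2⟩
  adj {i j} e := by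
    classical
    obtain ⟨A, h1, h2, h3, h4⟩ := D.adj e
    have a1 := fun t => h1 ▸ (h i t).1
    have a2 := fun t => h2 ▸ (h i t).2
    have a3 := fun t => h3 ▸ (h j t).1
    have a4 := fun t => h4 ▸ (h j t).2
    have hm : ∀ {p q}, p ≠ q → ∀ t, A.x p q t ∈ K := fun {p q} hpq => by
      fin_cases p <;> fin_cases q <;> first | exact absurd rfl hpq | assumption | skip
      exacts [A.mem_of (j := 1) (by simp) (by simp) hpq a1 a3, A.mem_of (j := 1) (by simp) (by simp) hpq a4 a2]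
    let y : Fin 3 → Fin 3 → F → K := fun p q t => if h : p ≠ q then ⟨_, hm h t⟩ else 1
    have hy : ∀ {p q}, p ≠ q → ∀ t, (y p q t : G) = A.x p q t := fun h t => by simp [y, h]
    refine ⟨⟨y, fun h t u => Subtype.ext ?_, fun h1 h2 h3 h4 t u => Subtype.ext ?_,
      fun h1 h2 h3 t u => Subtype.ext ?_⟩, ?_, ?_, ?_, ?_⟩
    · simp only [Subgroup.coe_mul, hy h, A.add h]
    · simp only [Subgroup.coe_mul, hy h1, hy h2, (A.comm h1 h2 h3 h4 t u).eq]
    · simp only [Subgroup.coe_mul, hy h1, hy h2, hy h3, A.conj h1 h2 h3]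
    all_goals exact funext fun t => Subtype.ext ((hy (by simp) t).trans (by simp [*]))

namespace E6

/-- Sparse integral matrices with at most one entry in each column. -/
abbrev Sp := I → ℤ × I

/-- The product. -/
def comp (A B : Sp) : Sp := fun l => ((A (B l).2).1 * (B l).1, (A (B l).2).2)

/-- The commutator. -/
def br (A B : Sp) : Sp := fun l => if (comp A B l).1 = 0 then (-(comp B A l).1, (comp B A l).2) else comp A B l

/-- Equality of the matrices. -/
def Eqv (A B : Sp) : Prop := ∀ l, (A l).1 = (B l).1 ∧ ((A l).1 = 0 ∨ (A l).2 = (B l).2)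

/-- The zero matrix. -/
def Zr (A : Sp) : Prop := ∀ l, (A l).1 = 0

instance (A B : Sp) : Decidable (Eqv A B) := by unfold Eqv; infer_instance
instance (A : Sp) : Decidable (Zr A) := by unfold Zr; infer_instance

variable (F : Type*) [Field F]

/-- The matrix. -/
def mat (A : Sp) : Matrix I I F := of fun k l => if k = (A l).2 then ((A l).1 : F) else 0

open Classical in
/-- The root elements. -/
noncomputable def el (A : Sp) (t : F) : GL I F :=
  if h : mat F A * mat F A = 0 then ⟨1 + t • mat F A, 1 - t • mat F A, by simp [add_mul, mul_sub, h],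
    by simp [sub_mul, mul_add, h]⟩ else 1

variable {F}

theorem mat_mul (A B : Sp) : mat F A * mat F B = mat F (comp A B) := by
  ext k l
  simp [mat, Matrix.mul_apply, comp]

theorem Eqv.mat {A B : Sp} (h : Eqv A B) : mat F A = mat F B := by
  ext k l
  obtain ⟨h1, h2 | h2⟩ := h l <;> simp [E6.mat, ← h1, h2]

theorem Zr.mat {A : Sp} (h : Zr A) : mat F A = 0 := by
  ext k l; simp [E6.mat, h l]

theorem mat_br {A B : Sp} (h : ∀ l, (comp A B l).1 = 0 ∨ (comp B A l).1 = 0) :
    mat F (br A B) = mat F A * mat F B - mat F B * mat F A := by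
  rw [mat_mul, mat_mul]
  ext k l
  by_cases c : (comp A B l).1 = 0
  · simp only [mat, br, c, of_apply, Matrix.sub_apply, if_true]; split_ifs <;> simp
  · simp [mat, br, c, (h l).resolve_left c]

theorem el_val {A : Sp} (h : Zr (comp A A)) (t : F) : (el F A t : Matrix I I F) = 1 + t • mat F A := by
  rw [el, dif_pos ((mat_mul A A).trans h.mat)]

theorem ap_el {A : Sp} (h : Zr (comp A A)) (t : F) (l : I) :
    ap (el F A t) (bv F l) = bv F l + (t * (A l).1) • bv F (A l).2 := by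
  ext k
  rw [ap_bv, el_val h]
  simp [mat, bv_apply, one_apply]

theorem el_comm {A B : Sp} (hA : Zr (comp A A)) (hB : Zr (comp B B)) (h : Eqv (comp A B) (comp B A)) (t u : F) :
    Commute (el F A t) (el F B u) := Units.ext (by
  have := h.mat (F := F)
  rw [← mat_mul, ← mat_mul] at this
  simp only [Units.val_mul, el_val hA, el_val hB, mul_add, add_mul, mul_one, one_mul, smul_mul_assoc,
    mul_smul_comm, this]
  module)

/-- The relations of type `A₂` for sparse matrices. -/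
def Chk (M : Fin 3 → Fin 3 → Sp) : Prop := (∀ i j, Zr (comp (M i j) (M i j))) ∧
  (∀ i j k l, i ≠ j → k ≠ l → j ≠ k → i ≠ l → Eqv (comp (M i j) (M k l)) (comp (M k l) (M i j))) ∧
  ∀ i j k, i ≠ j → j ≠ k → i ≠ k → (∀ l, (comp (M i j) (M j k) l).1 = 0 ∨ (comp (M j k) (M i j) l).1 = 0) ∧
    Eqv (br (M i j) (M j k)) (M i k) ∧ Zr (comp (M i j) (M i k)) ∧ Zr (comp (M j k) (M i k))

instance (M : Fin 3 → Fin 3 → Sp) : Decidable (Chk M) :=
  @instDecidableAnd _ _ inferInstance (@instDecidableAnd _ _ inferInstance inferInstance)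

variable (F) in
/-- The root elements of type `A₂`. -/
noncomputable def a2 {M : Fin 3 → Fin 3 → Sp} (h : Chk M) : A2 F (GL I F) where
  x i j := el F (M i j)
  add {i j} _ t u := Units.ext (by
    simp only [Units.val_mul, el_val (h.1 i j), mul_add, add_mul, mul_one, one_mul, smul_mul_assoc,
      mul_smul_comm, mat_mul, (h.1 i j).mat]
    module)
  comm h1 h2 h3 h4 := el_comm (h.1 _ _) (h.1 _ _) (h.2.1 _ _ _ _ h1 h2 h3 h4)
  conj {i j k} h1 h2 h3 t u := Units.ext (by
    obtain ⟨a, b, c, d⟩ := h.2.2 i j k h1 h2 h3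
    have e1 := (mat_mul (F := F) _ _).trans c.mat
    have e2 := (mat_mul (F := F) _ _).trans d.mat
    have e3 : mat F (M j k) * mat F (M i j) = mat F (M i j) * mat F (M j k) - mat F (M i k) := by
      rw [← b.mat, mat_br a]; abel
    simp only [Units.val_mul, el_val (h.1 _ _), mul_add, add_mul, mul_one, one_mul, smul_mul_assoc,
      mul_smul_comm, mul_assoc, e1, e2, e3, mul_zero]
    module)

/-- The matrices of the fundamental roots and their negatives. -/
def tb : Fin 6 → Bool → Sp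
  | 0, true => fun
    | (0, 1, 0) => (1, (0, 0, 0))
    | (0, 1, 1) => (1, (0, 0, 1))
    | (0, 1, 2) => (1, (0, 0, 2))
    | (2, 0, 0) => (-1, (2, 0, 1))
    | (2, 1, 0) => (-1, (2, 1, 1))
    | (2, 2, 0) => (-1, (2, 2, 1))
    | l => (0, l)
  | 0, false => fun
    | (0, 0, 0) => (1, (0, 1, 0))
    | (0, 0, 1) => (1, (0, 1, 1))
    | (0, 0, 2) => (1, (0, 1, 2))
    | (2, 0, 1) => (-1, (2, 0, 0))
    | (2, 1, 1) => (-1, (2, 1, 0))
    | (2, 2, 1) => (-1, (2, 2, 0))
    | l => (0, l)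
  | 1, true => fun
    | (1, 0, 1) => (-1, (1, 0, 2))
    | (1, 1, 1) => (-1, (1, 1, 2))
    | (1, 2, 1) => (-1, (1, 2, 2))
    | (2, 2, 0) => (1, (2, 1, 0))
    | (2, 2, 1) => (1, (2, 1, 1))
    | (2, 2, 2) => (1, (2, 1, 2))
    | l => (0, l)
  | 1, false => fun
    | (1, 0, 2) => (-1, (1, 0, 1))
    | (1, 1, 2) => (-1, (1, 1, 1))
    | (1, 2, 2) => (-1, (1, 2, 1))
    | (2, 1, 0) => (1, (2, 2, 0))
    | (2, 1, 1) => (1, (2, 2, 1))
    | (2, 1, 2) => (1, (2, 2, 2))
    | l => (0, l)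
  | 2, true => fun
    | (0, 2, 0) => (1, (0, 1, 0))
    | (0, 2, 1) => (1, (0, 1, 1))
    | (0, 2, 2) => (1, (0, 1, 2))
    | (2, 0, 1) => (-1, (2, 0, 2))
    | (2, 1, 1) => (-1, (2, 1, 2))
    | (2, 2, 1) => (-1, (2, 2, 2))
    | l => (0, l)
  | 2, false => fun
    | (0, 1, 0) => (1, (0, 2, 0))
    | (0, 1, 1) => (1, (0, 2, 1))
    | (0, 1, 2) => (1, (0, 2, 2))
    | (2, 0, 2) => (-1, (2, 0, 1))
    | (2, 1, 2) => (-1, (2, 1, 1))
    | (2, 2, 2) => (-1, (2, 2, 1))
    | l => (0, l)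
  | 3, true => fun
    | (0, 0, 2) => (-1, (2, 2, 1))
    | (0, 1, 2) => (1, (2, 2, 0))
    | (1, 0, 2) => (-1, (0, 2, 1))
    | (1, 1, 2) => (1, (0, 2, 0))
    | (2, 0, 2) => (-1, (1, 2, 1))
    | (2, 1, 2) => (1, (1, 2, 0))
    | l => (0, l)
  | 3, false => fun
    | (0, 2, 0) => (1, (1, 1, 2))
    | (0, 2, 1) => (-1, (1, 0, 2))
    | (1, 2, 0) => (1, (2, 1, 2))
    | (1, 2, 1) => (-1, (2, 0, 2))
    | (2, 2, 0) => (1, (0, 1, 2))
    | (2, 2, 1) => (-1, (0, 0, 2))
    | l => (0, l)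
  | 4, true => fun
    | (0, 0, 1) => (-1, (0, 0, 2))
    | (0, 1, 1) => (-1, (0, 1, 2))
    | (0, 2, 1) => (-1, (0, 2, 2))
    | (1, 2, 0) => (1, (1, 1, 0))
    | (1, 2, 1) => (1, (1, 1, 1))
    | (1, 2, 2) => (1, (1, 1, 2))
    | l => (0, l)
  | 4, false => fun
    | (0, 0, 2) => (-1, (0, 0, 1))
    | (0, 1, 2) => (-1, (0, 1, 1))
    | (0, 2, 2) => (-1, (0, 2, 1))
    | (1, 1, 0) => (1, (1, 2, 0))
    | (1, 1, 1) => (1, (1, 2, 1))
    | (1, 1, 2) => (1, (1, 2, 2))
    | l => (0, l)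
  | 5, true => fun
    | (0, 0, 0) => (-1, (0, 0, 1))
    | (0, 1, 0) => (-1, (0, 1, 1))
    | (0, 2, 0) => (-1, (0, 2, 1))
    | (1, 1, 0) => (1, (1, 0, 0))
    | (1, 1, 1) => (1, (1, 0, 1))
    | (1, 1, 2) => (1, (1, 0, 2))
    | l => (0, l)
  | 5, false => fun
    | (0, 0, 1) => (-1, (0, 0, 0))
    | (0, 1, 1) => (-1, (0, 1, 0))
    | (0, 2, 1) => (-1, (0, 2, 0))
    | (1, 0, 0) => (1, (1, 1, 0))
    | (1, 0, 1) => (1, (1, 1, 1))
    | (1, 0, 2) => (1, (1, 1, 2))
    | l => (0, l)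

/-- The level of a weight. -/
def lev : I → ℤ
  | (0, 0, 0) => 8
  | (0, 0, 1) => 9
  | (0, 0, 2) => 10
  | (0, 1, 0) => 7
  | (0, 1, 1) => 8
  | (0, 1, 2) => 9
  | (0, 2, 0) => 6
  | (0, 2, 1) => 7
  | (0, 2, 2) => 8
  | (1, 0, 0) => 16
  | (1, 0, 1) => 5
  | (1, 0, 2) => 6
  | (1, 1, 0) => 15
  | (1, 1, 1) => 4
  | (1, 1, 2) => 5
  | (1, 2, 0) => 14
  | (1, 2, 1) => 3
  | (1, 2, 2) => 4
  | (2, 0, 0) => 0
  | (2, 0, 1) => 1
  | (2, 0, 2) => 2
  | (2, 1, 0) => 11
  | (2, 1, 1) => 12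
  | (2, 1, 2) => 13
  | (2, 2, 0) => 10
  | (2, 2, 1) => 11
  | (2, 2, 2) => 12

/-- The reflection of a weight. -/
def rf (i : Fin 6) (l : I) : I := if (tb i true l).1 = 0 then (tb i false l).2 else (tb i true l).2

theorem tb_sq : ∀ i b, Zr (comp (tb i b) (tb i b)) := by decide +kernel

theorem tb_pair : ∀ i b l, (tb i b l).1 ≠ 0 → (tb i b l).1 * (tb i b l).1 = 1 ∧ (tb i (!b) l).1 = 0 ∧
    tb i (!b) (tb i b l).2 = ((tb i b l).1, l) ∧ (tb i b (tb i b l).2).1 = 0 ∧ (tb i b l).2 ≠ l := by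
  decide +kernel

theorem tb_zero : ∀ i b l, (tb i b l).1 = 0 → (tb i b l).2 = l := by decide +kernel

theorem tb_pat : ∀ i b l m, (tb i b l).1 ≠ 0 → (tb i b m).1 ≠ 0 →
    ∀ s, ip s (tb i b l).2 - ip s l = ip s (tb i b m).2 - ip s m := by decide +kernel

theorem rf_rf : ∀ i l, rf i (rf i l) = l := by decide +kernel

theorem ip_rf : ∀ i k l, ip (rf i k) (rf i l) = ip k l := by decide +kernel

theorem lev_ind : ∀ a b, ip b a = 1 → (∃ i c, (tb i c b).1 ≠ 0 ∧ (tb i c b).2 = a) ∨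
    ∃ i, (lev (rf i a) - lev (rf i b)).natAbs < (lev a - lev b).natAbs := by decide +kernel

theorem ap_el_apply (i : Fin 6) (b : Bool) (t : F) (v : I → F) (k : I) :
    ap (el F (tb i b) t) v k = v k + t * ((tb i (!b) k).1 * v (tb i (!b) k).2) := by
  rw [ap, el_val (tb_sq i b), add_mulVec, one_mulVec, smul_mulVec, Pi.add_apply, Pi.smul_apply, smul_eq_mul,
    mulVec, dotProduct, Finset.sum_eq_single (tb i (!b) k).2 (fun l _ hl => ?_) (by simp)]
  · by_cases c : (tb i (!b) k).1 = 0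
    · have : (tb i b k).1 = 0 ∨ k ≠ (tb i b k).2 := or_iff_not_imp_left.2 fun h => (tb_pair i b k h).2.2.2.2.symm
      rcases this with h | h <;> simp [mat, c, tb_zero _ _ _ c, h]
    · have := (tb_pair i (!b) k c).2.2.1
      rw [Bool.not_not] at this
      simp [mat, this]
  · by_cases c : (tb i b l).1 = 0
    · simp [mat, c]
    · rw [mat, of_apply, if_neg, zero_mul]
      rintro rfl
      exact hl (by rw [(tb_pair i b l c).2.2.1])

theorem el_mem (i : Fin 6) (b : Bool) (t : F) : el F (tb i b) t ∈ E6univ F := fun v => by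
  change cubicT (ap _ v) = _
  fin_cases i <;> cases b <;> simp only [cubicT_eq, ap_el_apply, Bool.not_true, Bool.not_false] <;>
    simp only [tb, Int.cast_zero, Int.cast_one, Int.cast_neg, zero_mul, mul_zero, add_zero] <;> ring

variable (F) in
/-- The subgroup generated by the fundamental root elements. -/
def G₀ : Subgroup (GL I F) := Subgroup.closure {g | ∃ i b t, g = el F (tb i b) t}

theorem el_mem₀ (i : Fin 6) (b : Bool) (t : F) : el F (tb i b) t ∈ G₀ F := Subgroup.subset_closure ⟨i, b, t, rfl⟩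

theorem G₀_le : G₀ F ≤ E6univ F := (Subgroup.closure_le _).2 (by rintro _ ⟨i, b, t, rfl⟩; exact el_mem i b t)

/-- The monomial elements. -/
noncomputable def nn (i : Fin 6) (t : F) : GL I F := el F (tb i true) t * el F (tb i false) (-t⁻¹) * el F (tb i true) t

theorem nn_mem (i : Fin 6) (t : F) : nn i t ∈ G₀ F := mul_mem (mul_mem (el_mem₀ _ _ _) (el_mem₀ _ _ _)) (el_mem₀ _ _ _)

theorem ap_nn (i : Fin 6) {t : F} (ht : t ≠ 0) (l : I) : ap (nn i t) (bv F l) =
    (if (tb i true l).1 = 0 then if (tb i false l).1 = 0 then 1 else -t⁻¹ * (tb i false l).1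
      else t * (tb i true l).1) • bv F (rf i l) := by
  simp only [nn, ap_mul, ap_el (tb_sq _ _), ap_add, ap_smul, rf]
  split_ifs with h1 h2
  · simp [h1, h2, tb_zero _ _ _ h2]
  · obtain ⟨a, -, c, -⟩ := tb_pair i false l h2
    have a' : ((tb i false l).1 : F) * (tb i false l).1 = 1 := by exact_mod_cast congrArg (Int.cast : ℤ → F) a
    simp only [Bool.not_false] at c
    simp only [h1, c, Int.cast_zero, mul_zero, zero_smul, add_zero]
    match_scalars
    · field_simp; linear_combination -a'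
    · ring
  · obtain ⟨a, b, c, d, -⟩ := tb_pair i true l h1
    have a' : ((tb i true l).1 : F) * (tb i true l).1 = 1 := by exact_mod_cast congrArg (Int.cast : ℤ → F) a
    simp only [Bool.not_true] at b c
    simp only [b, c, d, Int.cast_zero, mul_zero, zero_smul, add_zero]
    match_scalars
    · field_simp; linear_combination -a'
    · field_simp; linear_combination (-(tb i true l).1 : F) * a'

theorem exists_nn (i : Fin 6) : ∃ c : I → F, (∀ l, c l ≠ 0) ∧ ∀ l, ap (nn i 1) (bv F l) = c l • bv F (rf i l) := by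
  refine ⟨_, fun l => ?_, ap_nn i one_ne_zero⟩
  have key : ∀ b, (tb i b l).1 ≠ 0 → ((tb i b l).1 : F) ≠ 0 := fun b h =>
    left_ne_zero_of_mul_eq_one (b := ((tb i b l).1 : F)) (by exact_mod_cast congrArg (Int.cast : ℤ → F) (tb_pair i b l h).1)
  split_ifs with h1 h2
  exacts [one_ne_zero, by simpa using key _ h2, by simpa using key _ h1]

theorem exists_rt (a b : I) (h : ip b a = 1) (t : F) : ∃ x ∈ G₀ F, Rt a b t (x : Matrix I I F) := by
  induction hn : (lev a - lev b).natAbs using Nat.strong_induction_on generalizing a b t with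
  | _ n ih =>
    rcases lev_ind a b h with ⟨i, c, h1, rfl⟩ | ⟨i, h1⟩
    · obtain ⟨e, -, -, -, e'⟩ := tb_pair i c b h1
      have e1 : ((tb i c b).1 : F) * (tb i c b).1 = 1 := by exact_mod_cast congrArg (Int.cast : ℤ → F) e
      refine ⟨_, el_mem₀ i c (t * (tb i c b).1), ?_, fun k => ?_, fun k l hkl e s => ?_⟩ <;>
        rw [el_val (tb_sq _ _)] at *
      · simp [mat, e', mul_assoc, e1]
      · have : (tb i c k).1 = 0 ∨ k ≠ (tb i c k).2 := or_iff_not_imp_left.2 fun h => (tb_pair i c k h).2.2.2.2.symm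
        rcases this with h | h <;> simp [mat, h]
      · simp only [Matrix.add_apply, one_apply_ne hkl, Matrix.smul_apply, mat, of_apply, zero_add] at e
        split_ifs at e with h2
        · exact h2 ▸ tb_pat i c l b (fun h => e (by simp [h])) h1 s
        · simp at e
    · obtain ⟨c, c0, hc⟩ := exists_nn (F := F) i
      obtain ⟨x, x1, x2⟩ := ih _ (hn ▸ h1) _ _ (by rw [ip_rf, h]) (t * c (rf i b) * (c (rf i a))⁻¹) rfl
      have key : ∀ k l, ((nn i 1 * x * (nn i 1)⁻¹ : GL I F) : Matrix I I F) k l =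
          c (rf i k) * (x : Matrix I I F) (rf i k) (rf i l) * (c (rf i l))⁻¹ := fun k l => by
        have e1 : ap (nn i (1 : F))⁻¹ (bv F l) = (c (rf i l))⁻¹ • bv F (rf i l) := by
          rw [← ap_inv_ap (nn i 1) (_ • _), ap_smul, hc, rf_rf, smul_smul, inv_mul_cancel₀ (c0 _), one_smul]
        rw [← ap_bv, ap_mul, ap_mul, e1, ap_smul, ap_smul, Pi.smul_apply, ap, mulVec, dotProduct,
          Finset.sum_eq_single (rf i k) (fun m _ hm => by
            rw [← ap_bv, hc, Pi.smul_apply, bv_ne (fun e => hm (by rw [e, rf_rf])), smul_zero, zero_mul]) (by simp),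
          ← ap_bv (nn i 1), hc, rf_rf, ap_bv]
        simp [bv_self, mul_comm]
      refine ⟨_, mul_mem (mul_mem (nn_mem i 1) x1) (inv_mem (nn_mem i 1)), ?_, fun k => ?_, fun k l hkl e s => ?_⟩
      · rw [key, x2.val]; have := c0 (rf i a); have := c0 (rf i b); field_simp
      · rw [key, x2.diag, mul_one, mul_inv_cancel₀ (c0 _)]
      · have := x2.pat (rf i k) (rf i l) (fun e => hkl (by rw [← rf_rf i k, e, rf_rf]))
          (fun h => e (by rw [key, h, mul_zero, zero_mul])) (rf i s)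
        simpa only [ip_rf] using this

/-- The exponents of the diagonal elements. -/
def ex (i : Fin 6) (l : I) : ℤ := if (tb i true l).1 = 0 then if (tb i false l).1 = 0 then 0 else 1 else -1

theorem ap_hh (i : Fin 6) {t : F} (ht : t ≠ 0) (l : I) :
    ap (nn i t * nn i (-1)) (bv F l) = t ^ ex i l • bv F l := by
  rw [ap_mul, ap_nn i (neg_ne_zero.2 one_ne_zero), ap_smul, ap_nn i ht, rf_rf, smul_smul, rf, ex]
  congr 1
  by_cases h1 : (tb i true l).1 = 0
  · by_cases h2 : (tb i false l).1 = 0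
    · simp [h1, h2, tb_zero _ _ _ h2]
    · obtain ⟨a, -, c, -⟩ := tb_pair i false l h2
      have a' : ((tb i false l).1 : F) * (tb i false l).1 = 1 := by exact_mod_cast congrArg (Int.cast : ℤ → F) a
      simp only [Bool.not_false] at c
      simp only [h1, h2, c, if_true, if_false, zpow_one, inv_neg, inv_one, neg_neg]
      linear_combination t * a'
  · obtain ⟨a, b, c, d, -⟩ := tb_pair i true l h1
    have a' : ((tb i true l).1 : F) * (tb i true l).1 = 1 := by exact_mod_cast congrArg (Int.cast : ℤ → F) a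
    simp only [Bool.not_true] at b c
    simp only [h1, c, d, if_true, if_false, _root_.zpow_neg_one]
    linear_combination t⁻¹ * a'

/-- Diagonal isometries trivial on the given weights belong to the subgroup. -/
def DiagP (F : Type*) [Field F] (S : List I) : Prop := ∀ g ∈ E6univ F, ∀ d : I → F,
  (∀ l, ap g (bv F l) = d l • bv F l) → (∀ s ∈ S, d s = 1) → g ∈ G₀ F

theorem diag_step {S : List I} (i : Fin 6) (e : I) (h : ex i e * ex i e = 1 ∧ ∀ s ∈ S, ex i s = 0)
    (ih : DiagP F (e :: S)) : DiagP F S := fun g hg d hd hS => by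
  have h0 : d e ≠ 0 := fun c => by
    have := congrFun (ap_inv_ap g (bv F e)) e
    rw [hd, c, zero_smul, ap_zero, bv_self] at this
    exact zero_ne_one this
  have m := mul_mem (nn_mem i (d e ^ (-ex i e))) (nn_mem i (-1))
  refine (mul_mem_cancel_right m).1 (ih _ (mul_mem hg (G₀_le m)) (fun l => (d e ^ (-ex i e)) ^ ex i l * d l)
    (fun l => by rw [ap_mul, ap_hh i (zpow_ne_zero _ h0), ap_smul, hd, smul_smul]) fun s hs => ?_)
  rcases List.mem_cons.1 hs with rfl | hs
  · rw [← _root_.zpow_mul, neg_mul, h.1, _root_.zpow_neg_one, inv_mul_cancel₀ h0]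
  · rw [h.2 s hs, hS s hs, zpow_zero, mul_one]

theorem diag_final (hF : ∃ a : F, a ≠ 0 ∧ a ≠ 1) :
    DiagP F [(0, 0, 0), (0, 0, 2), (2, 0, 2), (2, 0, 1), (2, 1, 0), (2, 0, 0)] := fun g hg d hd hS => by
  have cr : ∀ k a b : I, cross (bv F a) (bv F b) k = cf k a b := fun k a b => by
    rw [cross_bv, Finset.sum_eq_single b (fun c _ hc => by rw [bv_ne hc, mul_zero]) (by simp), bv_self, mul_one]
  have tri : ∀ k a b : I, cf k a b * cf k a b = 1 → d a = 1 → d b = 1 → d k = 1 := fun k a b h ha hb => by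
    have := cross_ap hF hg (bv F a) (bv F b) (bv F k)
    rw [hd, hd, hd, ha, hb, one_smul, one_smul, dotProduct_smul, dot_bv, cr, smul_eq_mul] at this
    have h3 : (cf k a b : F) * cf k a b = 1 := by exact_mod_cast congrArg (Int.cast : ℤ → F) h
    linear_combination (cf k a b : F) * this - (d k - 1) * h3
  have h000 := hS (0, 0, 0) (by simp)
  have h002 := hS (0, 0, 2) (by simp)
  have h202 := hS (2, 0, 2) (by simp)
  have h201 := hS (2, 0, 1) (by simp)
  have h210 := hS (2, 1, 0) (by simp)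
  have h200 := hS (2, 0, 0) (by simp)
  have h120 := tri (1, 2, 0) (2, 0, 0) (0, 0, 2) (by decide) h200 h002
  have h100 := tri (1, 0, 0) (2, 0, 0) (0, 0, 0) (by decide) h200 h000
  have h222 := tri (2, 2, 2) (2, 1, 0) (2, 0, 1) (by decide) h210 h201
  have h221 := tri (2, 2, 1) (2, 1, 0) (2, 0, 2) (by decide) h210 h202
  have h121 := tri (1, 2, 1) (2, 1, 0) (0, 0, 2) (by decide) h210 h002
  have h101 := tri (1, 0, 1) (2, 1, 0) (0, 0, 0) (by decide) h210 h000
  have h012 := tri (0, 1, 2) (2, 0, 1) (1, 2, 0) (by decide) h201 h120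
  have h010 := tri (0, 1, 0) (2, 0, 1) (1, 0, 0) (by decide) h201 h100
  have h022 := tri (0, 2, 2) (2, 0, 2) (1, 2, 0) (by decide) h202 h120
  have h020 := tri (0, 2, 0) (2, 0, 2) (1, 0, 0) (by decide) h202 h100
  have h021 := tri (0, 2, 1) (0, 0, 2) (0, 1, 0) (by decide) h002 h010
  have h011 := tri (0, 1, 1) (0, 0, 2) (0, 2, 0) (by decide) h002 h020
  have h112 := tri (1, 1, 2) (1, 2, 0) (1, 0, 1) (by decide) h120 h101
  have h211 := tri (2, 1, 1) (2, 2, 2) (2, 0, 0) (by decide) h222 h200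
  have h122 := tri (1, 2, 2) (2, 2, 2) (0, 2, 2) (by decide) h222 h022
  have h102 := tri (1, 0, 2) (2, 2, 2) (0, 2, 0) (by decide) h222 h020
  have h212 := tri (2, 1, 2) (2, 2, 1) (2, 0, 0) (by decide) h221 h200
  have h110 := tri (1, 1, 0) (1, 2, 1) (1, 0, 2) (by decide) h121 h102
  have h001 := tri (0, 0, 1) (0, 1, 2) (0, 2, 0) (by decide) h012 h020
  have h111 := tri (1, 1, 1) (0, 2, 1) (2, 1, 2) (by decide) h021 h212
  have h220 := tri (2, 2, 0) (1, 1, 2) (0, 0, 1) (by decide) h112 h001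
  have : ∀ l, d l = 1 := by
    simp only [forall_I, forall_three]
    exact ⟨⟨⟨h000, h001, h002⟩, ⟨h010, h011, h012⟩, ⟨h020, h021, h022⟩⟩, ⟨⟨h100, h101, h102⟩, ⟨h110, h111, h112⟩, ⟨h120, h121, h122⟩⟩, ⟨⟨h200, h201, h202⟩, ⟨h210, h211, h212⟩, ⟨h220, h221, h222⟩⟩⟩
  rw [ext_bv (g := g) (h := 1) fun l => by rw [hd, this, one_smul, ap_one]]
  exact one_mem _

theorem G₀_eq (hF : ∃ a : F, a ≠ 0 ∧ a ≠ 1) : G₀ F = E6univ F :=
  le_antisymm G₀_le (le_of_diag hF G₀_le exists_rt fun g hg h =>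
    diag_step (S := []) 0 (2, 0, 0) (by decide) (diag_step 1 (2, 1, 0) (by decide)
      (diag_step 2 (2, 0, 1) (by decide) (diag_step 3 (2, 0, 2) (by decide) (diag_step 4 (0, 0, 2) (by decide)
      (diag_step 5 (0, 0, 0) (by decide) (diag_final hF)))))) g hg (fun l => (g : Matrix I I F) l l)
      (fun l => funext fun k => by
        rw [ap_bv, Pi.smul_apply, bv_apply]
        split_ifs with e
        exacts [by simp [e], by simp [h k l e]]) (by simp))

/-- The matrices of a subsystem of type `A₂`. -/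
def mA (i j : Fin 6) : Fin 3 → Fin 3 → Sp :=
  ![![fun l => (0, l), tb i true, br (tb i true) (tb j true)], ![tb i false, fun l => (0, l), tb j true],
    ![br (tb j false) (tb i false), tb j false, fun l => (0, l)]]

theorem chk_mA : ∀ i j : Fin 6, chevE6.cartan i (chevE6.simple j) = -1 → Chk (mA i j) := by
  decide +kernel

theorem comm_tb : ∀ i j : Fin 6, i ≠ j → chevE6.cartan i (chevE6.simple j) = 0 → ∀ b c,
    Eqv (comp (tb i b) (tb j c)) (comp (tb j c) (tb i b)) := by decide +kernel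

variable (F) in
/-- The diagram of root subgroups. -/
noncomputable def diag : Diag (fun i j : Fin 6 => chevE6.cartan i (chevE6.simple j)) F (GL I F) where
  u i := el F (tb i true)
  v i := el F (tb i false)
  comm h h' t s := ⟨el_comm (tb_sq _ _) (tb_sq _ _) (comm_tb _ _ h h' _ _) t s,
    el_comm (tb_sq _ _) (tb_sq _ _) (comm_tb _ _ h h' _ _) t s,
    el_comm (tb_sq _ _) (tb_sq _ _) (comm_tb _ _ h h' _ _) t s⟩
  adj h := ⟨a2 F (chk_mA _ _ h), rfl, rfl, rfl, rfl⟩

theorem nonempty_equiv (hF : ∃ a : F, a ≠ 0 ∧ a ≠ 1) : Nonempty (Lie.E6 F ≃* chevE6.group F) := by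
  have hD : IsChev chevE6 := by simp
  obtain ⟨inst⟩ := nonempty_chev hD
  have := (isSimpleGroup_group hD F (by rintro (h | h) <;> exact absurd (congrArg (·.rank) h) (by decide))).1
  have : Nonempty (Fin chevE6.rank) := ⟨⟨0, by decide⟩⟩
  have h1 : ∀ i : Fin 6, ∃ j : Fin 6, chevE6.cartan i (chevE6.simple j) = -1 := by decide +kernel
  let D := (diag F).restrict (E6univ F) fun i t => ⟨el_mem i _ t, el_mem i _ t⟩
  have hg : ∀ K : Subgroup (E6univ F), (∀ i t, D.u i t ∈ K ∧ D.v i t ∈ K) → K = ⊤ := fun K hK => by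
    have : G₀ F ≤ K.map (E6univ F).subtype := (Subgroup.closure_le _).2 (by
      rintro _ ⟨i, _ | _, t, rfl⟩
      exacts [⟨_, (hK i t).2, rfl⟩, ⟨_, (hK i t).1, rfl⟩])
    rw [eq_top_iff]
    rintro g -
    obtain ⟨k, hk, e⟩ := this ((G₀_eq hF).ge g.2)
    rwa [← show k = g from Subtype.ext e]
  have hp : commutator (E6univ F) = ⊤ := hg _ fun i t => by
    obtain ⟨j, h⟩ := h1 i
    obtain ⟨A, a1, a2, -⟩ := D.adj h
    exact ⟨a1 ▸ A.mem_commutator (j := 2) (by simp) (by simp) (by simp) t,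
      a2 ▸ A.mem_commutator (j := 2) (by simp) (by simp) (by simp) t⟩
  have : Nontrivial (E6univ F) := ⟨⟨D.u 0 1, 1, fun h => by
    have := congrFun (congrArg (fun g : E6univ F => ap (g : GL I F) (bv F (0, 1, 0))) h) (0, 0, 0)
    change ap (el F (tb 0 true) 1) _ _ = ap 1 _ _ at this
    rw [ap_one, ap_el_apply] at this
    simp [tb, bv_self] at this⟩⟩
  have := nontrivial_quotient_center hp
  have : Group.IsPerfect (E6univ F) := ⟨hp⟩
  refine Diag.nonempty_equiv (P := rs chevE6) (certOKE6.chkL_spec chkL_E6) h1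
    (Group.IsPerfect.center_quotient_center_eq_bot _) (grpRel_faithful hD) (grpRel_grp hD) (π := MonoidHom.id _)
    Function.surjective_id (by simp) (D.map (QuotientGroup.mk' _)) fun K hK => ?_
  rw [eq_top_iff]
  rintro g -
  obtain ⟨g, rfl⟩ := QuotientGroup.mk'_surjective _ g
  exact (hg (K.comap (QuotientGroup.mk' _)) hK).ge (Subgroup.mem_top g)

end E6

end Cfsg.Agent.H39
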