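import Cfsg.Agent.H39.E6a

/-! Gaussian elimination in the isometry group of the cubic form in 27 variables. -/

set_option autoImplicit false

namespace Cfsg.Agent.H39.E6

open Cfsg.Lie H38 Matrix

variable {F : Type*} [Field F]

theorem cubicT_ap {g : GL I F} (hg : g ∈ E6univ F) (x : I → F) : cubicT (ap g x) = cubicT x := hg x

theorem bv_eq (a : I) : bv F a = fun k => Int.castRingHom F (bz a k) := by
  ext k; simp [bv_apply, bz]

theorem dot_bv (x : I → F) (a : I) : x ⬝ᵥ bv F a = x a := by simp [bv]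

theorem sharp_bv (a : I) : sharp (bv F a) = 0 := funext fun k => sharp_eq_zero fun p hp => by
  by_contra h
  push Not at h
  have h1 : p.2.1 = a := by_contra fun e => h.1 (bv_ne e)
  have h2 : p.2.2 = a := by_contra fun e => h.2 (bv_ne e)
  have := ip_prs a k p hp
  rw [h1, h2, ip_self] at this
  rcases ip_cases a k with e | e | e <;> omega

theorem sharp_near {e k : I} {v : I → F} (hv : ∀ y, ip e y = 1 → v y = 0) (hk : ip e k = 1) : sharp v k = 0 :=
  sharp_eq_zero fun p hp => by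
    have := ip_prs e k p hp
    rcases ip_cases e p.2.1 with h | h | h
    · rcases ip_cases e p.2.2 with e | e | e <;> omega
    · exact Or.inl (hv _ h)
    · exact Or.inr (hv _ (by omega))

theorem cross_bv (e : I) (y : I → F) (k : I) : cross (bv F e) y k = ∑ b, (cf k e b : F) * y b := cross_single e y k

theorem cross_bv_eq_zero {e : I} {y : I → F} : cross (bv F e) y = 0 ↔ ∀ z, ip e z = -2 → y z = 0 := by
  refine ⟨fun h z hz => ?_, fun h => funext fun k => ?_⟩
  · obtain ⟨k, -, h1, h2⟩ := exists_cf e z hz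
    have := congrFun h k
    rw [cross_bv, Finset.sum_eq_single z (fun b _ hb => by simp [h2 b hb]) (by simp)] at this
    have h3 : (cf k e z : F) * cf k e z = 1 := by exact_mod_cast congrArg (Int.cast : ℤ → F) h1
    exact (mul_eq_zero.1 this).resolve_left (left_ne_zero_of_mul_eq_one h3)
  · rw [cross_bv]
    refine Finset.sum_eq_zero fun b _ => ?_
    by_cases c : cf k e b = 0
    · simp [c]
    · rw [h b (ip_of_cf k e b c), mul_zero]

theorem eq_zero_of_white {e : I} {v : I → F} (hv : sharp v = 0) (h0 : v e ≠ 0) (h1 : ∀ y, ip e y = 1 → v y = 0)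
    {z : I} (hz : z ≠ e) : v z = 0 := by
  rcases ip_cases e z with h | h | h
  · exact absurd (eq_of_ip h).symm hz
  · exact h1 z h
  set u := v - v e • bv F e with hu
  have u1 : ∀ y, ip e y ≠ -2 → u y = 0 := fun y hy => by
    rcases ip_cases e y with h | h | h
    · simp [hu, ← eq_of_ip h, bv_self]
    · simp [hu, h1 y h, bv_ne (show y ≠ e by rintro rfl; rw [ip_self] at h; omega)]
    · exact absurd h hy
  obtain ⟨k, k1, k2, k3⟩ := exists_cf e z h
  have e1 := congrFun hv k
  rw [show v = v e • bv F e + u by simp [hu], sharp_add, sharp_smul, sharp_bv, cross_smul_left] at e1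
  have e2 : sharp u k = 0 := sharp_eq_zero fun p hp => by
    have := ip_prs e k p hp
    by_cases c : ip e p.2.1 = -2
    · exact Or.inr (u1 _ (by omega))
    · exact Or.inl (u1 _ c)
  simp only [smul_zero, Pi.add_apply, Pi.zero_apply, Pi.smul_apply, e2, cross_bv, smul_eq_mul, zero_add,
    add_zero] at e1
  rw [Finset.sum_eq_single z (fun b _ hb => by simp [k3 b hb]) (by simp)] at e1
  have h3 : (cf k e z : F) * cf k e z = 1 := by exact_mod_cast congrArg (Int.cast : ℤ → F) k2
  simpa [hu, bv_ne hz, h0, left_ne_zero_of_mul_eq_one h3] using e1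

/-- Weights not separated by the chosen weights. -/
def Sim (Λ : List I) (k l : I) : Prop := ∀ s ∈ Λ, ip s k = ip s l

instance (Λ : List I) (k l : I) : Decidable (Sim Λ k l) := by unfold Sim; infer_instance

/-- Matrices preserving the grading given by the chosen weights. -/
def Gr (Λ : List I) (g : Matrix I I F) : Prop := ∀ k l, g k l ≠ 0 → Sim Λ k l

theorem Gr.mul {Λ : List I} {g h : Matrix I I F} (hg : Gr Λ g) (hh : Gr Λ h) : Gr Λ (g * h) := fun k l e => by
  rw [Matrix.mul_apply] at e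
  obtain ⟨m, -, hm⟩ := Finset.exists_ne_zero_of_sum_ne_zero e
  exact fun s hs => (hg k m (left_ne_zero_of_mul hm) s hs).trans (hh m l (right_ne_zero_of_mul hm) s hs)

theorem Gr.one (Λ : List I) : Gr Λ (1 : Matrix I I F) := fun k l e => by
  obtain rfl : k = l := by_contra fun h => e (one_apply_ne h)
  exact fun _ _ => rfl

theorem Gr.transpose {Λ : List I} {g : Matrix I I F} (hg : Gr Λ g) : Gr Λ gᵀ := fun k l e s hs =>
  (hg l k e s hs).symm

theorem Gr.mulVec {Λ : List I} {g : Matrix I I F} (hg : Gr Λ g) {e : I} {v : I → F}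
    (hv : ∀ k, v k ≠ 0 → Sim Λ k e) (k : I) (h : (g *ᵥ v) k ≠ 0) : Sim Λ k e := by
  rw [Matrix.mulVec, dotProduct] at h
  obtain ⟨m, -, hm⟩ := Finset.exists_ne_zero_of_sum_ne_zero h
  exact fun s hs => (hg k m (left_ne_zero_of_mul hm) s hs).trans (hv m (right_ne_zero_of_mul hm) s hs)

/-- The shape of a root element for the root `a - b`. -/
structure Rt (a b : I) (t : F) (x : Matrix I I F) : Prop where
  val : x a b = t
  diag : ∀ k, x k k = 1
  pat : ∀ k l, k ≠ l → x k l ≠ 0 → ∀ s, ip s k - ip s l = ip s a - ip s b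

namespace Rt

variable {a b : I} {t : F} {x : Matrix I I F} (h : Rt a b t x)
include h

theorem transpose : Rt b a t xᵀ :=
  ⟨h.val, h.diag, fun k l h1 h2 s => by have := h.pat l k h1.symm h2 s; omega⟩

theorem gr {Λ : List I} (hs : Sim Λ a b) : Gr Λ x := fun k l e s hs' => by
  by_cases c : k = l
  · rw [c]
  · have := h.pat k l c e s
    have := hs s hs'
    omega

theorem mulVec_fix {k : I} (hk : ∀ l, k ≠ l → x k l = 0) (v : I → F) : (x *ᵥ v) k = v k := by
  rw [mulVec, dotProduct, Finset.sum_eq_single k (fun l _ hl => by rw [hk l hl.symm, zero_mul]) (by simp), h.diag,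
    one_mul]

theorem mulVec_left (hab : a ≠ b) (v : I → F) : (x *ᵥ v) a = v a + t * v b := by
  rw [mulVec, dotProduct, Finset.sum_eq_add a b hab (fun l _ hl => by
    rw [show x a l = 0 from by_contra fun e => hl.2 (eq_of_ip (a := l) (by
      have := h.pat a l hl.1.symm e l
      rw [ip_self] at this; omega)), zero_mul]) (by simp) (by simp), h.diag, h.val, one_mul]

theorem mulVec_right (hab : ip b a = 1) (v : I → F) : (x *ᵥ v) b = v b :=
  h.mulVec_fix (fun l hl => by_contra fun e => by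
    have := h.pat b l hl e b
    rw [ip_self] at this
    rcases ip_cases b l with e | e | e <;> omega) v

theorem mulVec_near (hab : ip b a = 1) {k : I} (hk : ip b k = 1) (hka : k ≠ a) (v : I → F) : (x *ᵥ v) k = v k :=
  h.mulVec_fix (fun l hl => by_contra fun e => by
    have h1 := h.pat k l hl e
    have h2 := h1 b
    rw [ip_self] at h2
    obtain rfl : b = l := eq_of_ip (by omega)
    have h3 := h1 k
    rw [ip_self] at h3
    exact hka (eq_of_ip (by omega))) v

end Rt

theorem exists_clear {Λ : List I} {e : I} (K : Submonoid (Matrix I I F))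
    (hK : ∀ y, ip e y = 1 → Sim Λ y e → ∀ t, ∃ x ∈ K, Rt y e t x) {v : I → F} (hv : ∀ k, v k ≠ 0 → Sim Λ k e)
    (h0 : v e ≠ 0) : ∃ h ∈ K, Gr Λ h ∧ (∀ w, (h *ᵥ w) e = w e) ∧ ∀ y, ip e y = 1 → (h *ᵥ v) y = 0 := by
  suffices ∀ S : Finset I, ∃ h ∈ K, Gr Λ h ∧ (∀ w, (h *ᵥ w) e = w e) ∧ ∀ y ∈ S, ip e y = 1 → (h *ᵥ v) y = 0 by
    obtain ⟨h, h1, h2, h3, h4⟩ := this Finset.univ
    exact ⟨h, h1, h2, h3, fun y => h4 y (Finset.mem_univ y)⟩
  intro S
  induction S using Finset.induction_on with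
  | empty => exact ⟨1, one_mem _, Gr.one Λ, by simp, by simp⟩
  | insert y S hy ih =>
    obtain ⟨h, h1, h2, h3, h4⟩ := ih
    by_cases c : ip e y = 1 → (h *ᵥ v) y = 0
    · exact ⟨h, h1, h2, h3, Finset.forall_mem_insert _ _ _ |>.2 ⟨c, h4⟩⟩
    push Not at c
    have hs := h2.mulVec hv y c.2
    obtain ⟨x, x1, x2⟩ := hK y c.1 hs (-((h *ᵥ v) y / v e))
    refine ⟨x * h, mul_mem x1 h1, (x2.gr hs).mul h2, fun w => by rw [← mulVec_mulVec, x2.mulVec_right c.1, h3],
      fun k hk k1 => ?_⟩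
    rw [← mulVec_mulVec]
    rcases Finset.mem_insert.1 hk with rfl | hk'
    · rw [x2.mulVec_left (by rintro rfl; rw [ip_self] at k1; omega), h3]; field_simp; ring
    · rw [x2.mulVec_near c.1 k1 (by rintro rfl; exact hy hk'), h4 k hk' k1]

variable (hF : ∃ a : F, a ≠ 0 ∧ a ≠ 1)
include hF

theorem sharp_ap {g : GL I F} (hg : g ∈ E6univ F) (x y : I → F) : sharp (ap g x) ⬝ᵥ ap g y = sharp x ⬝ᵥ y := by
  obtain ⟨a, h0, h1⟩ := hF
  have key : ∀ t : F, t * (sharp (ap g x) ⬝ᵥ ap g y - sharp x ⬝ᵥ y) +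
      t * t * (sharp (ap g y) ⬝ᵥ ap g x - sharp y ⬝ᵥ x) = 0 := fun t => by
    have := cubicT_ap hg (x + t • y)
    rw [ap_add, ap_smul, cubicT_add, cubicT_add, cubicT_smul, cubicT_smul, cubicT_ap hg, cubicT_ap hg, sharp_smul,
      sharp_smul] at this
    simp only [dotProduct_smul, smul_dotProduct, smul_eq_mul] at this
    linear_combination this
  refine sub_eq_zero.1 (mul_left_cancel₀ (mul_ne_zero h0 (sub_ne_zero.2 h1)) ?_)
  linear_combination a * a * key 1 - key a

theorem cross_ap {g : GL I F} (hg : g ∈ E6univ F) (x y z : I → F) :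
    cross (ap g x) (ap g y) ⬝ᵥ ap g z = cross x y ⬝ᵥ z := by
  have := sharp_ap hF hg (x + y) z
  rw [ap_add, sharp_add, sharp_add] at this
  simp only [add_dotProduct, sharp_ap hF hg] at this
  linear_combination this

theorem white_ap {g : GL I F} (hg : g ∈ E6univ F) {x : I → F} (h : sharp x = 0) : sharp (ap g x) = 0 :=
  funext fun k => by rw [← dot_bv (sharp _), ← ap_ap_inv g (bv F k), sharp_ap hF hg, h, zero_dotProduct]; rfl

theorem white_row {g : GL I F} (hg : g ∈ E6univ F) (e : I) : sharp (fun k => (g : Matrix I I F) e k) = 0 := by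
  obtain ⟨p, -, h1, h2, h3⟩ := exists_sharp e
  set x := bv F p.2.1 + bv F p.2.2
  have hx : x = fun k => Int.castRingHom F ((bz p.2.1 + bz p.2.2) k) := by
    ext k; simp [x, bv_eq]
  have : (fun k => (g : Matrix I I F) e k) = (p.1 : F) • sharp (ap g⁻¹ x) := funext fun k => by
    rw [Pi.smul_apply, ← dot_bv (sharp _), ← sharp_ap hF hg, ap_ap_inv, ← ap_bv, hx, dotProduct,
      Finset.sum_eq_single e (fun b _ hb => by rw [sharp_map, h3, if_neg hb, map_zero, zero_mul]) (by simp),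
      sharp_map, h3, if_pos rfl, smul_eq_mul, ← mul_assoc, eq_intCast, ← Int.cast_mul, h1, Int.cast_one, one_mul]
  rw [this, sharp_smul, sharp_sharp, cubicT_ap (inv_mem hg), hx, cubicT_map, h2, map_zero, zero_smul, smul_zero]

theorem ap_far {g : GL I F} (hg : g ∈ E6univ F) {e : I} {c : F} (hc : c ≠ 0) (h : ap g (bv F e) = c • bv F e)
    {y : I → F} (hy : ∀ z, ip e z = -2 → y z = 0) : ∀ z, ip e z = -2 → ap g y z = 0 := by
  rw [← cross_bv_eq_zero] at hy ⊢
  refine funext fun k => mul_left_cancel₀ hc ?_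
  have := cross_ap hF hg (bv F e) y (ap g⁻¹ (bv F k))
  rwa [hy, ap_ap_inv, dot_bv, h, cross_smul_left, zero_dotProduct, ← mul_zero c] at this

theorem ip_eq_of_fix {g : GL I F} (hg : g ∈ E6univ F) {e : I} {c : F} (hc : c ≠ 0)
    (h : ap g (bv F e) = c • bv F e) (h' : ∀ w, ap g w e = c * w e) {k l : I}
    (hkl : (g : Matrix I I F) k l ≠ 0) : ip e k = ip e l := by
  rw [← ap_bv] at hkl
  have ne : ∀ {a b : I}, ip e a ≠ ip e b → a ≠ b := fun h e => h (by rw [e])
  have i1 : ap g⁻¹ (bv F e) = c⁻¹ • bv F e := by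
    rw [← ap_inv_ap g (c⁻¹ • _), ap_smul, h, smul_smul, inv_mul_cancel₀ hc, one_smul]
  have key : ∀ w : I → F, (∀ y, ip e y = 1 → w y = 0) → cubicT w ≠ 0 → ip e k = 1 → ap g w k = 0 :=
    fun w hw h0 hk => by
      have h1 : ∀ y, ip e y = 1 → sharp (ap g w) y = 0 := fun y hy => by
        rw [← dot_bv (sharp _), ← ap_ap_inv g (bv F y), sharp_ap hF hg]
        refine Finset.sum_eq_zero fun a _ => ?_
        rcases ip_cases e a with h | h | h
        · have := h' (ap g⁻¹ (bv F y))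
          rw [ap_ap_inv, bv_ne (ne (by rw [ip_self]; omega))] at this
          rw [← eq_of_ip h, (mul_eq_zero.1 this.symm).resolve_left hc, mul_zero]
        · rw [sharp_near hw h, zero_mul]
        · rw [ap_far hF (inv_mem hg) (inv_ne_zero hc) i1 (fun z hz => bv_ne (ne (by omega))) a h, mul_zero]
      have h2 := sharp_near h1 hk
      rw [sharp_sharp, cubicT_ap hg] at h2
      exact (mul_eq_zero.1 h2).resolve_left h0
  by_cases c1 : l = e
  · subst c1
    rw [show k = l from by_contra fun e => hkl (by rw [h, Pi.smul_apply, bv_ne e, smul_zero])]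
  by_cases c2 : k = e
  · exact absurd (by rw [c2, h', bv_ne (Ne.symm c1), mul_zero]) hkl
  have c3 : ip e l ≠ 4 := fun h => c1 (eq_of_ip h).symm
  have c4 : ip e k ≠ 4 := fun h => c2 (eq_of_ip h).symm
  by_contra c5
  rcases ip_cases e l with h1 | h1 | h1 <;> rcases ip_cases e k with h2 | h2 | h2 <;> try omega
  · exact hkl (ap_far hF hg hc h (fun z hz => bv_ne (ne (by omega))) k h2)
  obtain ⟨p, hp, p1, p2⟩ := exists_nonsing e l h1
  have p3 := ip_prs e e p hp
  rw [ip_self] at p3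
  have p4 : ∀ y, ip e y = 1 → (bv F e + bv F p.2.1 + bv F p.2.2) y = 0 := fun y hy => by
    have := ip_cases e p.2.1
    have := ip_cases e p.2.2
    simp [bv_ne (ne (a := y) (b := e) (by rw [ip_self]; omega)), bv_ne (ne (a := y) (b := p.2.1) (by omega)),
      bv_ne (ne (a := y) (b := p.2.2) (by omega))]
  have nz : ∀ {v : I → ℤ}, cubicT v ^ 2 = 1 → cubicT (fun k => Int.castRingHom F (v k)) ≠ 0 := fun h e => by
    have := congrArg (Int.castRingHom F) h
    rw [map_pow, ← cubicT_map, e] at this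
    simp at this
  have q1 := key _ p4 (by convert nz p1 using 2; ext; simp [bv_eq]) h2
  have q2 := key (bv F e + bv F p.2.1 + bv F p.2.2 + bv F l)
    (fun y hy => by rw [Pi.add_apply, p4 y hy, bv_ne (ne (by omega)), add_zero])
    (by convert nz p2 using 2; ext; simp [bv_eq]) h2
  rw [ap_add, Pi.add_apply, q1, zero_add] at q2
  exact hkl q2

/-- Connectivity of the block of a weight. -/
def Conn (Λ : List I) (e : I) : Prop := ∀ a, Sim Λ a e → a = e ∨ ip a e = 1 ∨ ∃ b, Sim Λ b e ∧ ip a b = 1 ∧ ip b e = 1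

theorem step {G₀ : Subgroup (GL I F)} (h₀ : G₀ ≤ E6univ F)
    (hE : ∀ a b, ip b a = 1 → ∀ t, ∃ x ∈ G₀, Rt a b t (x : Matrix I I F)) {Λ : List I} {e : I} (hc : Conn Λ e)
    (ih : ∀ g ∈ E6univ F, Gr (e :: Λ) (g : Matrix I I F) → g ∈ G₀) :
    ∀ g ∈ E6univ F, Gr Λ (g : Matrix I I F) → g ∈ G₀ := by
  have s3 : ∀ g ∈ E6univ F, Gr Λ (g : Matrix I I F) → (∃ c : F, c ≠ 0 ∧ ap g (bv F e) = c • bv F e) → g ∈ G₀ := by
    rintro g hg hg' ⟨c, hc0, h⟩
    have h0 : (g : Matrix I I F) e e ≠ 0 := by rw [← ap_bv, h]; simpa [bv_self]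
    obtain ⟨_, ⟨x, x1, rfl⟩, x2, x3, x4⟩ := exists_clear (Λ := Λ) (e := e)
      { carrier := {m | ∃ x ∈ G₀, (x : Matrix I I F)ᵀ = m}
        one_mem' := ⟨1, one_mem _, by simp⟩
        mul_mem' := by
          rintro _ _ ⟨x, hx, rfl⟩ ⟨y, hy, rfl⟩
          exact ⟨y * x, mul_mem hy hx, by simp⟩ }
      (fun y hy _ t => by
        obtain ⟨x, x1, x2⟩ := hE e y (ip_comm _ _ ▸ hy) t
        exact ⟨_, ⟨x, x1, rfl⟩, x2.transpose⟩)
      (v := fun k => (g : Matrix I I F) e k) (fun k hk s hs => (hg' e k hk s hs).symm) h0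
    have hx : ap x (bv F e) = bv F e := funext fun k => by
      have := x3 (bv F k)
      rw [bv_apply] at this ⊢
      simp only [eq_comm (a := k), ← this]
      simp [bv, ap]
    have m1 := mul_mem hg (h₀ x1)
    have m2 : ap (g * x) (bv F e) = c • bv F e := by rw [ap_mul, hx, h]
    have m3 : ∀ k, k ≠ e → ((g * x : GL I F) : Matrix I I F) e k = 0 := fun k =>
      eq_zero_of_white (white_row hF m1 e) (by rw [← ap_bv, m2]; simpa [bv_self]) fun y hy => by
        rw [← x4 y hy]; simp [Matrix.mul_apply, mulVec, dotProduct, mul_comm]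
    have m4 : ∀ w, ap (g * x) w e = c * w e := fun w => by
      rw [ap, mulVec, dotProduct, Finset.sum_eq_single e (fun b _ hb => by rw [m3 b hb, zero_mul]) (by simp),
        ← ap_bv, m2, Pi.smul_apply, bv_self, smul_eq_mul, mul_one]
    refine (mul_mem_cancel_right x1).1 (ih _ m1 fun k l hkl s hs => ?_)
    rcases List.mem_cons.1 hs with rfl | hs
    · exact ip_eq_of_fix hF m1 hc0 m2 m4 hkl
    · exact hg'.mul x2.transpose k l hkl s hs
  have col : ∀ {g : GL I F}, Gr Λ (g : Matrix I I F) → ∀ k, ap g (bv F e) k ≠ 0 → Sim Λ k e := fun hg k hk =>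
    hg k e (by rwa [ap_bv] at hk)
  have s2 : ∀ g ∈ E6univ F, Gr Λ (g : Matrix I I F) → ap g (bv F e) e ≠ 0 → g ∈ G₀ := by
    intro g hg hg' h0
    obtain ⟨_, ⟨x, x1, rfl⟩, x2, x3, x4⟩ := exists_clear (Λ := Λ) (e := e)
      (G₀.toSubmonoid.map (Units.coeHom _)) (fun y hy _ t => by
        obtain ⟨x, x1, x2⟩ := hE y e hy t
        exact ⟨_, ⟨x, x1, rfl⟩, x2⟩) (col hg') h0
    replace x1 : x ∈ G₀ := x1
    have m1 := mul_mem (h₀ x1) hg
    have m2 : ap (x * g) (bv F e) e ≠ 0 := by rw [ap_mul]; exact (x3 _).trans_ne h0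
    refine (mul_mem_cancel_left x1).1 (s3 _ m1 (x2.mul hg') ⟨_, m2, funext fun k => ?_⟩)
    by_cases c : k = e
    · simp [c, bv_self]
    · rw [eq_zero_of_white (white_ap hF m1 (sharp_bv e)) m2 (fun y hy => by rw [ap_mul]; exact x4 y hy) c]
      simp [bv_ne c]
  have mv : ∀ {a b : I}, Sim Λ a e → Sim Λ b e → ip a b = 1 →
      (∀ g ∈ E6univ F, Gr Λ (g : Matrix I I F) → ap g (bv F e) b ≠ 0 → g ∈ G₀) →
      ∀ g ∈ E6univ F, Gr Λ (g : Matrix I I F) → ap g (bv F e) a ≠ 0 → g ∈ G₀ := by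
    intro a b ha hb hab h g hg hg' h0
    by_cases c : ap g (bv F e) b = 0
    · obtain ⟨x, x1, x2⟩ := hE b a hab 1
      refine (mul_mem_cancel_left x1).1 (h _ (mul_mem (h₀ x1) hg)
        ((x2.gr fun s hs => (hb s hs).trans (ha s hs).symm).mul hg') ?_)
      rw [ap_mul, ap, x2.mulVec_left (by rintro rfl; rw [ip_self] at hab; omega), c]
      simpa
    · exact h g hg hg' c
  intro g hg hg'
  obtain ⟨a, ha⟩ : ∃ a, ap g (bv F e) a ≠ 0 := by
    by_contra c
    push Not at c
    have := congrFun (ap_inv_ap g (bv F e)) e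
    rw [show ap g (bv F e) = 0 from funext c, ap_zero, bv_self] at this
    exact zero_ne_one this
  have hs := col hg' a ha
  have he : Sim Λ e e := fun _ _ => rfl
  rcases hc a hs with rfl | h | ⟨b, h1, h2, h3⟩
  exacts [s2 g hg hg' ha, mv hs he h s2 g hg hg' ha, mv hs h1 h2 (mv h1 he h3 s2) g hg hg' ha]

theorem le_of_diag {G₀ : Subgroup (GL I F)} (h₀ : G₀ ≤ E6univ F)
    (hE : ∀ a b, ip b a = 1 → ∀ t, ∃ x ∈ G₀, Rt a b t (x : Matrix I I F))
    (hd : ∀ g ∈ E6univ F, (∀ k l, k ≠ l → (g : Matrix I I F) k l = 0) → g ∈ G₀) : E6univ F ≤ G₀ := fun g hg =>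
  step hF h₀ hE (Λ := []) (e := (0, 0, 0)) (by unfold Conn; decide +kernel)
    (step hF h₀ hE (e := (0, 0, 1)) (by unfold Conn; decide +kernel)
    (step hF h₀ hE (e := (0, 1, 0)) (by unfold Conn; decide +kernel)
    (step hF h₀ hE (e := (0, 0, 2)) (by unfold Conn; decide +kernel)
    (step hF h₀ hE (e := (1, 0, 0)) (by unfold Conn; decide +kernel)
    (step hF h₀ hE (e := (1, 0, 1)) (by unfold Conn; decide +kernel)
    fun g hg h => hd g hg fun k l hkl => by_contra fun e => hkl ((by decide +kernel : ∀ k l : I,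
      Sim [(1, 0, 1), (1, 0, 0), (0, 0, 2), (0, 1, 0), (0, 0, 1), (0, 0, 0)] k l → k = l) k l (h k l e)))))))
    g hg fun _ _ _ _ h => absurd h List.not_mem_nil

end Cfsg.Agent.H39.E6
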