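import Cfsg.Agent.H39.IsoSL

/-! Lifting root elements through central extensions whose kernel is uniquely `p`-divisible. -/

set_option autoImplicit false

namespace Cfsg.Agent.H39

open Cfsg.Lie Cfsg.Lie.ChevalleyDatum H37 H37.Chev H38

theorem exists_pow_mul {Γ U : Type*} [Group Γ] [Group U] [Finite U] {p : ℕ} [Fact p.Prime] (hU : IsPGroup p U)
    (π : Γ →* U) (hc : π.ker ≤ Subgroup.center Γ) : ∃ k, ∀ a b : Γ, (a * b) ^ p ^ k = a ^ p ^ k * b ^ p ^ k ∧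
      a ^ p ^ k ∈ Subgroup.center Γ := by
  obtain ⟨n, hn⟩ := IsPGroup.iff_card.1 hU
  obtain ⟨k, -, hk⟩ := (Nat.dvd_prime_pow Fact.out).1 ((Subgroup.index_dvd_of_le hc).trans
    (Subgroup.index_ker π ▸ hn ▸ π.range.card_subgroup_dvd_card))
  have : (Subgroup.center Γ).FiniteIndex := ⟨hk ▸ pow_ne_zero _ (Fact.out : p.Prime).ne_zero⟩
  exact ⟨k, fun a b => ⟨hk ▸ congrArg Subtype.val ((MonoidHom.transferCenterPow Γ).map_mul a b),
    hk ▸ (Subgroup.center Γ).pow_index_mem a⟩⟩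

theorem exists_psub {E Q : Type*} [Group E] [Group Q] {p : ℕ} [Fact p.Prime] {π : E →* Q}
    (hc : π.ker ≤ Subgroup.center E) (h1 : ∀ z ∈ π.ker, z ^ p = 1 → z = 1) (U : Subgroup Q) [Finite U]
    (hU : IsPGroup p U) : ∃ P : Subgroup E, (∀ g, π g ∈ U → g ^ p = 1 → g ∈ P) ∧
      ∀ g ∈ P, ∀ g' ∈ P, π g = π g' → g = g' := by
  obtain ⟨k, hk⟩ := exists_pow_mul hU (π.subgroupComap U) fun z hz => Subgroup.mem_center_iff.2 fun g =>
    Subtype.ext (Subgroup.mem_center_iff.1 (hc (congrArg Subtype.val (MonoidHom.mem_ker.1 hz))) g)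
  let P : Subgroup E :=
    { carrier := {g | π g ∈ U ∧ g ^ p ^ (k + 1) = 1}
      one_mem' := ⟨by simp, one_pow _⟩
      inv_mem' := fun h => ⟨by simpa using h.1, by rw [inv_pow, h.2, inv_one]⟩
      mul_mem' := fun {a b} ha hb => ⟨by simpa using mul_mem ha.1 hb.1, by
        obtain ⟨e1, e2⟩ := hk ⟨a, ha.1⟩ ⟨b, hb.1⟩
        replace e1 : (a * b) ^ p ^ k = a ^ p ^ k * b ^ p ^ k := congrArg Subtype.val e1
        have e3 : Commute (b ^ p ^ k) (a ^ p ^ k) :=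
          congrArg Subtype.val (Subgroup.mem_center_iff.1 e2 ((⟨b, hb.1⟩ : U.comap π) ^ p ^ k))
        rw [pow_succ, pow_mul, e1, e3.symm.mul_pow, ← pow_mul, ← pow_mul, ← pow_succ, ha.2, hb.2, mul_one]⟩ }
  have key : ∀ n, ∀ z ∈ π.ker, z ^ p ^ n = 1 → z = 1 := fun n => by
    induction n with
    | zero => simp
    | succ n ih => exact fun z hz h => ih z hz (h1 _ (pow_mem hz _) (by rwa [← pow_mul, ← pow_succ]))
  refine ⟨P, fun g a b => ⟨a, by rw [pow_succ', pow_mul, b, one_pow]⟩, fun g hg g' hg' e => ?_⟩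
  exact mul_inv_eq_one.1 (key _ _ (by simp [e]) (mul_mem hg (inv_mem hg')).2)

variable {D : ChevalleyDatum} [Chev D] (hD : IsChev D) {K : Type*} [Field K] [Finite K]

theorem exists_AB_plift {E Q : Type*} [Group E] [Group Q] (p : ℕ) [CharP K p] {π : E →* Q}
    (hπ : Function.Surjective π) (hc : π.ker ≤ Subgroup.center E) (h1 : ∀ z ∈ π.ker, z ^ p = 1 → z = 1)
    (h2 : ∀ z ∈ π.ker, ∃ w ∈ π.ker, w ^ p = z) (φ : D.group K →* Q) :
    ∃ X : AB D K E, ∀ r < D.nroots, ∀ t, π (X.x r t) = φ ((grpAB hD K).x r t) := by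
  have := Fintype.ofFinite K
  obtain ⟨n, hp, hn⟩ := FiniteField.card K p
  have := Fact.mk hp
  set S := grpAB hD K
  have hx : ∀ r t, ∃ y, r < D.nroots → π y = φ (S.x r t) ∧ y ^ p = 1 := fun r t => by
    by_cases hr : r < D.nroots
    · obtain ⟨y, hy⟩ := hπ (φ (S.x r t))
      have e : ∀ k : ℕ, S.x r t ^ k = S.x r (k * t) := fun k => by
        induction k with
        | zero => rw [pow_zero, Nat.cast_zero, zero_mul]; exact ((S.rg hD).x_zero ⟨r, hr⟩).symm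
        | succ k ih => rw [pow_succ, ih, S.x_add r hr]; congr 1; push_cast; ring
      obtain ⟨w, w1, w2⟩ := h2 (y ^ p) (by
        rw [MonoidHom.mem_ker, map_pow, hy, ← map_pow, e, CharP.cast_eq_zero, zero_mul,
          show S.x r 0 = 1 from (S.rg hD).x_zero ⟨r, hr⟩, map_one])
      refine ⟨y * w⁻¹, fun _ => ⟨by rw [map_mul, map_inv, MonoidHom.mem_ker.1 w1, hy]; simp, ?_⟩⟩
      rw [(show Commute y w from Subgroup.mem_center_iff.1 (hc w1) y).inv_right.mul_pow, inv_pow, w2, mul_inv_cancel]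
    · exact ⟨1, fun h => absurd h hr⟩
  choose y hy using hx
  have key : ∀ f : (Fin D.rank → ℤ) →ₗ[ℤ] ℤ, ∃ P : Subgroup E,
      (∀ r : Fin D.nroots, 0 < f ((rs D).cf r) → ∀ t, y r t ∈ P) ∧ ∀ g ∈ P, ∀ g' ∈ P, π g = π g' → g = g' := fun f => by
    have hU : IsPGroup p ((rg (grpRel K hD)).US {k | 0 < f ((rs D).cf k)}) := IsPGroup.of_card (by
      rw [RG0.card_US _ (grpRel_faithful hD).sep (cl_of_pos _ f), Nat.card_eq_fintype_card, hn, ← pow_mul])
    have : Finite (((rg (grpRel K hD)).US {k | 0 < f ((rs D).cf k)}).map φ) :=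
      Finite.of_surjective _ (φ.subgroupMap_surjective _)
    obtain ⟨P, p1, p2⟩ := exists_psub hc h1 _ (hU.map φ)
    exact ⟨P, fun r hr t => p1 _ ⟨_, (rg (grpRel K hD)).x_mem (S := {k | 0 < f ((rs D).cf k)}) hr t,
      (hy r t r.2).1.symm⟩ (hy r t r.2).2, p2⟩
  refine ⟨⟨y, fun r hr t u => ?_, fun r hr s hs a b t u => ?_⟩, fun r hr t => (hy r t hr).1⟩
  · obtain ⟨f, f1, -⟩ := exists_functional_pos (rs D) (r := ⟨r, hr⟩) (s := ⟨r, hr⟩) ((rs D).ne_neg _)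
    obtain ⟨P, p1, p2⟩ := key f
    exact p2 _ (mul_mem (p1 _ f1 _) (p1 _ f1 _)) _ (p1 _ f1 _) (by
      rw [map_mul, (hy r _ hr).1, (hy r _ hr).1, (hy r _ hr).1, ← map_mul, S.x_add r hr])
  · obtain ⟨f, f1, f2⟩ := exists_functional_pos (rs D) (r := ⟨r, hr⟩) (s := ⟨s, hs⟩) fun e => b (congrArg Fin.val e)
    obtain ⟨P, p1, p2⟩ := key f
    refine p2 _ (mul_mem (p1 _ f2 _) (p1 _ f1 _)) _ (mul_mem (mul_mem (p1 _ f1 _) (p1 _ f2 _))
      (Subgroup.list_prod_mem _ fun g hg => ?_)) ?_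
    · obtain ⟨q, hq, rfl⟩ := List.mem_map.1 hg
      obtain ⟨q1, i, j, hi, hj, e⟩ := commWord_sound hr hs hq
      refine p1 ⟨q.1, q1⟩ ?_ _
      have : (rs D).cf ⟨q.1, q1⟩ = (i : ℤ) • (rs D).cf ⟨r, hr⟩ + (j : ℤ) • (rs D).cf ⟨s, hs⟩ :=
        funext fun l => e l l.2
      rw [this, map_add, map_zsmul, map_zsmul]
      exact add_pos (mul_pos (by omega) f1) (mul_pos (by omega) f2)
    · rw [map_mul, map_mul, map_mul, (hy r _ hr).1, (hy s _ hs).1, ← map_mul, S.x_comm r hr s hs a b, map_mul,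
        map_mul, map_gword, map_gword, 
        gword_congr (x := fun r t => π (y r t)) (y := fun r t => φ (S.x r t)) fun q hq => (hy _ _ (commWord_sound hr hs hq).1).1]

end Cfsg.Agent.H39
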